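import Cfsg.Agent.O83.A2b
import Cfsg.Agent.Trans.TransferTools
import Cfsg.Agent.Block.SylowIn

/-!
A simple group does not contain `O₈⁺(2)` in this way: transfer of the transvection.
-/

set_option autoImplicit false

namespace Cfsg.Lib.O83

open Cfsg Cfsg.Lib.SporChar Cfsg.Lib.SporChar.Co Cfsg.Lib.Local Cfsg.Lib.Spor Subgroup
open scoped Pointwise commutatorElement

theorem a2c_sq (hi : FInv) (c : FCls) {x : Om8} (hx : x * x = 1) : ∃ w, w * w = x := by
  obtain ⟨i, h, e⟩ := hi x hx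
  have k : ∀ a j b, chk (frw a ++ bw j ++ (frw a ++ bw j)) (frw b) = true →
      IsConj (F0.fr b) (F0.fr i) → ∃ w, w * w = x := fun a j b h1 h2 => by
    obtain ⟨g, rfl⟩ := isConj_iff.1 (h2.trans e)
    exact ⟨g * W (frw a ++ bw j) * g⁻¹, by rw [conj_mul, ← W_append, W_eq h1, fr_F0]⟩
  have t : typ i ≤ 5 := (sq_iff F0 h).1 (by
    obtain ⟨g, rfl⟩ := isConj_iff.1 e
    rwa [conj_mul, conj_eq_one_iff] at hx)
  obtain ⟨c1, c2, c3, c4, c5⟩ := c i h
  obtain t | t | t | t | t | t : typ i = 0 ∨ typ i = 1 ∨ typ i = 2 ∨ typ i = 3 ∨ typ i = 4 ∨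
    typ i = 5 := by omega
  · rcases (typ_zero i h).1 t with rfl | rfl
    · exact k 0 0 0 (by decide +kernel) (IsConj.refl _)
    · exact k 17 0 256 (by decide +kernel) (IsConj.refl _)
  · exact k 17 0 256 (by decide +kernel) (by rw [F0.fr_256]; exact c1 t)
  · exact k 88 3 427 (by decide +kernel) (c2 t)
  · exact k 209 1 11 (by decide +kernel) (c3 t)
  · exact k 83 2 161 (by decide +kernel) (c4 t)
  · exact k 90 3 170 (by decide +kernel) (c5 t)

variable {G : Type*} [Group G] [Finite G]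

theorem St1.a2c_nsq (S : St1 G) {y : G} (h1 : y * y = S.θ1 (tv 78))
    (h2 : y * S.F.z = S.F.z * y) : False := by
  have e1 : U1.index = 42525 := by
    have := U1.card_mul_index
    rw [sy_card1, card_O8] at this; omega
  have y4 : y ^ 2 ^ 2 = 1 := by
    rw [show y ^ 2 ^ 2 = y * y * (y * y) by simp [pow_succ, mul_assoc], h1, ← map_mul, tv_sq, map_one]
  obtain ⟨c, hc, le⟩ := (Block.isSylowIn_of_not_dvd_relIndex
    ((IsPGroup.of_card (p := 2) (n := 13) sy_card1).map S.θ1) S.le_z fun k => by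
      have := k.trans (relIndex_dvd_index_of_le S.le_z)
      rw [index_map_of_injective _ S.inj1, e1] at this
      exact (Odd.mul (by decide) S.odd).not_two_dvd_nat this).exists_conj_le (Q := zpowers y)
    (by
      rintro ⟨_, m, rfl⟩
      exact ⟨2, Subtype.ext (by
        change (y ^ m) ^ 2 ^ 2 = 1
        rw [← zpow_natCast, ← zpow_mul, mul_comm, zpow_mul, zpow_natCast, y4, one_zpow])⟩)
    (zpowers_le_of_mem (mem_centralizer_singleton_iff.2 h2))
  obtain ⟨e, he, r⟩ := le ⟨y, mem_zpowers y, rfl⟩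
  have r2 : c * S.θ1 (tv 78) * c⁻¹ = S.θ1 (e * e) := by
    rw [map_mul, r, ← h1, ← conj_mul]; rfl
  obtain ⟨u, hu, s | s⟩ := (sy_mem1 _).1 (mul_mem he he)
  · obtain ⟨i, hi, j, hj, rfl⟩ := (sy_mem u).1 hu
    obtain ⟨κ, hκ⟩ := S.exists_acts (mem_centralizer_singleton_iff.1 hc)
    have k := (S.F.acts_fr hi).mul (S.acts_b hj)
    have n1 := nfix_congr fun v _ => evM_fr_mul (S.acts_b hj) hi k v
    rw [S.fr_θ1, S.T_θ1, ← map_mul, ← Subgroup.coe_mul, ← s, ← r2] at k
    rw [nfix_conj hκ S.acts_d k, nfix_b.2.2] at n1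
    by_cases j0 : j = 0
    · rw [j0, nfix_b.1] at n1; omega
    · rw [nfix_b.2.1 j hj j0] at n1; omega
  · exact fSy1.2.2.1 ((Om8.mul_mem_cancel_left u.2).1 (s ▸ mul_self_mem_of_index_two index_Om8 e))

theorem St1.elim [IsSimpleGroup G] (_h0 : FSy) (_h : FSy1) (i : FInv) (c : FCls) (S : St1 G)
    (y : ∀ y : G, y * y = S.θ1 (tv 78) → ∃ k, k * S.θ1 (tv 78) = S.θ1 (tv 78) * k ∧
      k * y * k⁻¹ * S.F.z = S.F.z * (k * y * k⁻¹)) : False := by
  have m : ∀ a, S.θ1 a ∈ Om8.map S.θ1 ↔ a ∈ Om8 := fun a => mem_map_iff_mem S.inj1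
  have d2 : S.θ1 (tv 78) * S.θ1 (tv 78) = 1 := by rw [← map_mul, tv_sq, map_one]
  have top : commutator G = ⊤ := (IsSimpleGroup.eq_bot_or_eq_top_of_normal _ inferInstance).resolve_left
    fun e => by
      have := commutator_mem_commutator (mem_top (S.F.fr 1)) (mem_top (S.F.fr 16))
      rw [← commutator_def, e, mem_bot, commutatorElement_eq_one_iff_mul_comm,
        comm_iff _ (by norm_num) (by norm_num)] at this
      exact absurd this (by decide +kernel)
  obtain ⟨a, -, ⟨x, hx, e⟩, -⟩ := Trans.thompson_transfer_involution (H := S.θ1.range)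
    (T := Om8.map S.θ1) S.odd.not_two_dvd_nat (by
      rintro _ ⟨a, rfl⟩ _ ⟨b, rfl⟩
      rw [← map_commutatorElement, m, commutatorElement_def]
      simp only [mul_mem_iff_of_index_two index_Om8, inv_mem_iff]
      tauto) (by
      rintro _ ⟨a, rfl⟩
      exact ⟨1, by rw [← map_pow, m]; exact sq_mem_of_index_two index_Om8 a⟩) (S.θ1 (tv 78))
    (orderOf_eq_prime (by rw [pow_two, d2]) fun e => S.θ_ne_d 1 ((map_one _).trans e.symm)) (by
      rintro _ ⟨a, rfl⟩ _ ⟨b, rfl⟩ - - h1 h2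
      rw [m] at h1 h2
      rw [← map_mul, m, mul_mem_iff_of_index_two index_Om8]
      tauto) (mem_sup_left (top ▸ mem_top _)) ⊥ IsPGroup.of_bot
    (fun r hr => by rw [mem_bot.1 hr, one_mul, mul_one])
  obtain ⟨w, hw⟩ := a2c_sq i c (x := ⟨x, hx⟩) (Subtype.ext (S.inj1 (by
    change S.θ1 (x * x) = S.θ1 1
    rw [map_mul, e, map_one, show ∀ a d : G, a⁻¹ * d * a * (a⁻¹ * d * a) = a⁻¹ * (d * d) * a from
      fun _ _ => by group, d2, mul_one, inv_mul_cancel])))
  have h1 : a * S.θ w * a⁻¹ * (a * S.θ w * a⁻¹) = S.θ1 (tv 78) := by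
    rw [conj_mul, ← map_mul, hw, ← S.ext, e]; group
  obtain ⟨k, k1, k2⟩ := y _ h1
  exact S.a2c_nsq (by rw [conj_mul, h1, k1, mul_inv_cancel_right]) k2

end Cfsg.Lib.O83
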